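import Mathlib
import Cfsg.Prelude.Def_MonsterType
import Cfsg.Agent.H2.Components
import Cfsg.Agent.H3.Frattini

/-! Large extraspecial subgroups: the structure of the normal closure of the centre. -/

set_option autoImplicit false
set_option linter.unusedSectionVars false

namespace Cfsg.Agent.H24.Lx

open Subgroup Cfsg.Agent.H2
open scoped commutatorElement

variable {G : Type*} [Group G]

/-- The working form of the hypothesis. -/
structure St (Q : Subgroup G) (z : G) : Prop where
  pg : IsPGroup 2 Q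
  zQ : z ∈ Q
  z1 : z ≠ 1
  zz : z * z = 1
  cz : ∀ q ∈ Q, q * z = z * q
  cen : ∀ x : G, (∀ q ∈ Q, q * x = x * q) → x = 1 ∨ x = z
  nrm : ∀ x : G, x * z = z * x → x ∈ normalizer (Q : Set G)
  comm : ∀ a ∈ Q, ∀ b ∈ Q, a * b * a⁻¹ * b⁻¹ = 1 ∨ a * b * a⁻¹ * b⁻¹ = z
  odd : ∀ K : Subgroup G, Odd (Nat.card K) → Q ≤ normalizer (K : Set G) → K = ⊥

theorem mem_zpowers_two {z x : G} (hz : z * z = 1) (hx : x ∈ zpowers z) : x = 1 ∨ x = z := by
  obtain ⟨n, rfl⟩ := hx
  have h2 : z ^ (2 : ℤ) = 1 := by rw [zpow_two]; exact hz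
  rcases Int.even_or_odd' n with ⟨k, rfl | rfl⟩
  · left; simp only; rw [zpow_mul, h2, one_zpow]
  · right; simp only; rw [zpow_add, zpow_mul, h2, one_zpow, one_mul, zpow_one]

theorem st_of [Finite G] {Q : Subgroup G} (hQ : IsLargeExtraspecial Q) {z : G}
    (hz : ((center Q).map Q.subtype) = zpowers z) : St Q z := by
  obtain ⟨⟨⟨hp, -, hc⟩, hcard⟩, hC, hN, hO⟩ := hQ
  have hc2 : Nat.card (zpowers z) = 2 := by
    rw [← hz, card_map_of_injective Q.subtype_injective]; exact hcard
  have ho : orderOf z = 2 := by rw [← Nat.card_zpowers]; exact hc2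
  have hzz : z * z = 1 := by rw [← pow_two, ← ho, pow_orderOf_eq_one]
  have hzm : z ∈ (center Q).map Q.subtype := by rw [hz]; exact mem_zpowers z
  obtain ⟨z', hz', hz'e⟩ := hzm
  refine ⟨hp, ?_, ?_, hzz, ?_, ?_, ?_, ?_, hO⟩
  · rw [← hz'e]; exact z'.2
  · intro h; rw [h, orderOf_one] at ho; omega
  · intro q hq
    have := congrArg Subtype.val (mem_center_iff.1 hz' ⟨q, hq⟩)
    simpa [← hz'e] using this
  · intro x hx
    apply mem_zpowers_two hzz
    rw [← hz, ← hC]
    exact fun q hq => hx q hq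
  · intro x hx
    apply hN
    rw [hz]
    intro y hy
    rcases mem_zpowers_two hzz hy with rfl | rfl
    · simp
    · exact hx.symm
  · intro a ha b hb
    apply mem_zpowers_two hzz
    rw [← hz, ← hc]
    refine ⟨⁅(⟨a, ha⟩ : Q), (⟨b, hb⟩ : Q)⁆, ?_, rfl⟩
    exact commutator_mem_commutator (mem_top _) (mem_top _)

namespace St

variable {Q : Subgroup G} {z : G} (h : St Q z)
include h

theorem sq {a : G} (ha : a ∈ Q) : a * a = 1 ∨ a * a = z := by
  apply h.cen
  intro q hq
  have hz := h.cz
  rcases h.comm a ha q hq with e | e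
  · have e1 : a * q = q * a := by
      calc a * q = (a * q * a⁻¹ * q⁻¹) * (q * a) := by group
        _ = q * a := by rw [e, one_mul]
    calc q * (a * a) = (q * a) * a := by group
      _ = (a * q) * a := by rw [e1]
      _ = a * (q * a) := by group
      _ = a * a * q := by rw [← e1]; group
  · have e1 : a * q = z * (q * a) := by
      calc a * q = (a * q * a⁻¹ * q⁻¹) * (q * a) := by group
        _ = z * (q * a) := by rw [e]
    have e2 := hz a ha
    calc q * (a * a) = (z * z) * (q * a) * a := by rw [h.zz]; group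
      _ = z * (z * (q * a)) * a := by group
      _ = z * (a * q) * a := by rw [← e1]
      _ = (z * a) * (q * a) := by group
      _ = a * (z * (q * a)) := by rw [← e2]; group
      _ = a * a * q := by rw [← e1]; group

variable [Finite G]

/-- Every nontrivial `Q`-invariant subgroup contains `z`. -/
theorem mem_of_inv {K : Subgroup G} (hK : K ≠ ⊥) (hn : Q ≤ normalizer (K : Set G)) : z ∈ K := by
  have hev : Even (Nat.card K) := by
    by_contra hc
    exact hK (h.odd K (Nat.not_even_iff_odd.1 hc) hn)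
  letI : MulAction Q K :=
    { smul := fun q k => ⟨q * k * (q : G)⁻¹, (mem_normalizer_iff.1 (hn q.2) k).1 k.2⟩
      one_smul := fun k => Subtype.ext (by
        show ((1 : Q) : G) * k * ((1 : Q) : G)⁻¹ = k
        simp)
      mul_smul := fun a b k => Subtype.ext (by
        show ((a * b : Q) : G) * k * ((a * b : Q) : G)⁻¹ = a * (b * k * (b : G)⁻¹) * (a : G)⁻¹
        simp only [coe_mul]; group) }
  haveI : Fact (Nat.Prime 2) := ⟨Nat.prime_two⟩
  have hs : ∀ (q : Q) (k : K), ((q • k : K) : G) = q * k * (q : G)⁻¹ := fun _ _ => rfl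
  have h1 : (1 : K) ∈ MulAction.fixedPoints Q K := by
    intro q; apply Subtype.ext; rw [hs]; simp
  obtain ⟨b, hb, hb1⟩ := h.pg.exists_fixed_point_of_prime_dvd_card_of_fixed_point K
    (even_iff_two_dvd.1 hev) h1
  have hb2 : (b : G) = 1 ∨ (b : G) = z := by
    apply h.cen
    intro q hq
    have := congrArg Subtype.val (hb ⟨q, hq⟩)
    rw [hs] at this
    calc q * b = (q * b * q⁻¹) * q := by group
      _ = b * q := by rw [this]
  rcases hb2 with e | e
  · exact absurd (Subtype.ext e.symm) hb1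
  · rw [← e]; exact b.2

theorem mem_of_normal {K : Subgroup G} [K.Normal] (hK : K ≠ ⊥) : z ∈ K :=
  h.mem_of_inv hK (by rw [normalizer_eq_top]; exact le_top)

/-- No component centralizes `z`. -/
theorem not_cent {L : Subgroup G} (hL : IsComponent L) : z ∉ centralizer (L : Set G) := by
  intro hz
  haveI : Fact (Nat.Prime 2) := ⟨Nat.prime_two⟩
  haveI := h.pg.isNilpotent
  have hn : L ≤ normalizer (Q : Set G) := fun x hx => h.nrm x (hz x hx)
  have hc := component_commutator_eq_bot_of_isSolvable hL hn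
  rw [commutator_eq_bot_iff_le_centralizer] at hc
  apply not_le_centralizer_of_isQuasisimple hL.2
  intro x hx y hy
  rcases h.cen x (fun q hq => hc hx q hq) with rfl | rfl
  · simp
  · exact hz y hy

theorem pPrime_bot : pPrimeCore 2 G = ⊥ := by
  haveI := pPrimeCore_characteristic (G := G) (p := 2)
  apply h.odd
  · exact Nat.coprime_two_right.1 pPrimeCore_coprime
  · rw [normalizer_eq_top]; exact le_top

theorem case2 (h2 : pCore 2 G ≠ ⊥) :
    IsMulCommutative (normalClosure ({z} : Set G)) ∧ generalizedFittingSubgroup G = pCore 2 G := by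
  haveI : Fact (Nat.Prime 2) := ⟨Nat.prime_two⟩
  haveI := pCore_characteristic (G := G) (p := 2)
  have hz := h.mem_of_normal h2
  constructor
  · have hZ : (center (pCore 2 G)).map (pCore 2 G).subtype ≠ ⊥ := by
      haveI : Nontrivial (pCore 2 G) := (nontrivial_iff_ne_bot _).2 h2
      haveI := (pCore_isPGroup (G := G) (p := 2)).center_nontrivial
      rw [Ne, map_eq_bot_iff_of_injective _ (subtype_injective _)]
      exact (nontrivial_iff_ne_bot _).1 this
    haveI : ((center (pCore 2 G)).map (pCore 2 G).subtype).Normal :=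
      ConjAct.normal_of_characteristic_of_normal
    have hz' := h.mem_of_normal hZ
    have hle : normalClosure ({z} : Set G) ≤ (center (pCore 2 G)).map (pCore 2 G).subtype :=
      normalClosure_le_normal (by simpa using hz')
    refine ⟨⟨fun a b => Subtype.ext ?_⟩⟩
    obtain ⟨a', ha', ea⟩ := hle a.2
    obtain ⟨b', -, eb⟩ := hle b.2
    have := congrArg Subtype.val (mem_center_iff.1 ha' b')
    simp only [coe_mul, coe_subtype] at this ea eb ⊢
    rw [← ea, ← eb, this]
  · have hl : layer G = ⊥ := by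
      rw [layer_eq_bot_iff]
      intro K hK
      apply h.not_cent hK
      intro x hx
      exact ((layer_le_centralizer_pCore 2 (le_layer hK hx)) z hz).symm
    rw [generalizedFitting_eq_fittingSubgroup_iff.2 hl,
      fittingSubgroup_eq_pCore_of_pPrimeCore_eq_bot h.pPrime_bot]

theorem layer_eq (h2 : pCore 2 G = ⊥) :
    fittingSubgroup G = ⊥ ∧ generalizedFittingSubgroup G = layer G ∧ layer G ≠ ⊥ ∧
      normalClosure ({z} : Set G) = layer G := by
  haveI : Fact (Nat.Prime 2) := ⟨Nat.prime_two⟩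
  have hF : fittingSubgroup G = ⊥ := by
    rw [fittingSubgroup_eq_pCore_of_pPrimeCore_eq_bot h.pPrime_bot, h2]
  have hE : generalizedFittingSubgroup G = layer G := by
    rw [generalizedFittingSubgroup, hF, sup_bot_eq]
  haveI : Nontrivial G := ⟨⟨z, 1, h.z1⟩⟩
  have hne : layer G ≠ ⊥ := hE ▸ generalizedFitting_ne_bot
  haveI := layer_normal G
  refine ⟨hF, hE, hne, le_antisymm ?_ ?_⟩
  · exact normalClosure_le_normal (by simpa using h.mem_of_normal hne)
  · apply sSup_le
    intro K hK
    rcases component_le_or_commutator_eq_bot (H := normalClosure ({z} : Set G)) hK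
      (Normal.isSubnormal inferInstance) with e | e
    · exact e
    · exfalso
      apply h.not_cent hK
      rw [commutator_comm, commutator_eq_bot_iff_le_centralizer] at e
      exact e (subset_normalClosure (Set.mem_singleton z))

end St

/-- conjugate subgroup -/
abbrev cj (g : G) (L : Subgroup G) : Subgroup G := L.map (MulAut.conj g).toMonoidHom

theorem mem_cj {g x : G} {L : Subgroup G} (hx : x ∈ L) : g * x * g⁻¹ ∈ cj g L := ⟨x, hx, rfl⟩

theorem mem_cj_iff {g y : G} {L : Subgroup G} : y ∈ cj g L ↔ g⁻¹ * y * g ∈ L := by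
  constructor
  · rintro ⟨x, hx, rfl⟩
    simpa [mul_assoc] using hx
  · intro hy
    exact ⟨_, hy, by simp [mul_assoc]⟩

theorem cj_cj (g k : G) (L : Subgroup G) : cj g (cj k L) = cj (g * k) L := by
  ext y; simp only [mem_cj_iff, mul_inv_rev, mul_assoc]

theorem cj_comp {L : Subgroup G} (hL : IsComponent L) (g : G) : IsComponent (cj g L) := by
  apply isComponent_map (MulAut.conj g).surjective hL
  rw [Ne, map_eq_bot_iff_of_injective _ (MulAut.conj g).injective]
  exact ne_bot_of_isQuasisimple hL.2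

theorem cent_cj {L : Subgroup G} {c : G} (hc : c ∈ centralizer (L : Set G)) (g : G) :
    g * c * g⁻¹ ∈ centralizer (cj g L : Set G) := by
  rintro _ ⟨x, hx, rfl⟩
  have := hc x hx
  show g * x * g⁻¹ * (g * c * g⁻¹) = g * c * g⁻¹ * (g * x * g⁻¹)
  calc g * x * g⁻¹ * (g * c * g⁻¹) = g * (x * c) * g⁻¹ := by group
    _ = g * (c * x) * g⁻¹ := by rw [this]
    _ = _ := by group

theorem le_cent_of_ne [Finite G] {K L : Subgroup G} (hK : IsComponent K) (hL : IsComponent L)
    (h : K ≠ L) : K ≤ centralizer (L : Set G) :=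
  commutator_eq_bot_iff_le_centralizer.1
    ((component_eq_or_commutator_eq_bot hK hL).resolve_left h)

theorem uniq {L : Subgroup G} (hL : L ⊓ centralizer (L : Set G) = ⊥) {a a' c c' : G}
    (ha : a ∈ L) (ha' : a' ∈ L) (hc : c ∈ centralizer (L : Set G))
    (hc' : c' ∈ centralizer (L : Set G)) (e : a * c = a' * c') : a = a' := by
  have h1 : a'⁻¹ * a = c' * c⁻¹ := by
    calc a'⁻¹ * a = a'⁻¹ * (a * c) * c⁻¹ := by group
      _ = c' * c⁻¹ := by rw [e]; group
  have h2 : a'⁻¹ * a ∈ L ⊓ centralizer (L : Set G) :=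
    mem_inf.2 ⟨mul_mem (inv_mem ha') ha, by rw [h1]; exact mul_mem hc' (inv_mem hc)⟩
  rw [hL, mem_bot] at h2
  exact (inv_mul_eq_one.1 h2).symm

theorem decomp {L K : Subgroup G} (hK : K ≤ centralizer (L : Set G)) {g : G} (hg : g ∈ L ⊔ K) :
    ∃ a ∈ L, ∃ c ∈ K, g = a * c := by
  let S : Subgroup G :=
    { carrier := {g | ∃ a ∈ L, ∃ c ∈ K, g = a * c}
      one_mem' := ⟨1, one_mem _, 1, one_mem _, by simp⟩
      mul_mem' := by
        rintro _ _ ⟨a, ha, c, hc, rfl⟩ ⟨a', ha', c', hc', rfl⟩
        refine ⟨a * a', mul_mem ha ha', c * c', mul_mem hc hc', ?_⟩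
        have := hK hc a' ha'
        calc a * c * (a' * c') = a * (c * a') * c' := by group
          _ = a * (a' * c) * c' := by rw [this]
          _ = _ := by group
      inv_mem' := by
        rintro _ ⟨a, ha, c, hc, rfl⟩
        refine ⟨a⁻¹, L.inv_mem ha, c⁻¹, K.inv_mem hc, ?_⟩
        rw [hK hc a ha, mul_inv_rev] }
  have : L ⊔ K ≤ S := sup_le (fun a ha => ⟨a, ha, 1, one_mem _, by simp⟩)
    (fun c hc => ⟨1, one_mem _, c, hc, by simp⟩)
  exact this hg

theorem norm_cent {X : Subgroup G} {g : G} (hg : cj g X = X) :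
    g ∈ normalizer ((centralizer (X : Set G) : Subgroup G) : Set G) := by
  rw [mem_normalizer_iff]
  intro c
  constructor
  · intro hc
    have := cent_cj hc g
    rwa [hg] at this
  · intro hc
    have h1 := cent_cj hc g⁻¹
    have h2 : cj g⁻¹ X = X := by
      conv_lhs => rw [← hg, cj_cj]
      ext y; simp [mem_cj_iff]
    rw [h2] at h1
    simpa [mul_assoc] using h1

theorem norm_of_cj {X : Subgroup G} {g : G} (hg : cj g X = X) : g ∈ normalizer (X : Set G) := by
  rw [mem_normalizer_iff'']
  intro y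
  rw [← mem_cj_iff, hg]

/-- if `Q` normalizes a product `X` of components, it is the whole layer -/
theorem St.layer_le [Finite G] {Q : Subgroup G} {z : G} (h : St Q z) {L X : Subgroup G}
    (hL : IsComponent L) (hLX : L ≤ X) (hX : ∀ K, IsComponent K → K ≤ X ∨ K ≤ centralizer (X : Set G))
    (hn : ∀ q ∈ Q, cj q X = X) : layer G ≤ X := by
  apply sSup_le
  intro K hK
  rcases hX K hK with e | e
  · exact e
  · exfalso
    have hne : centralizer (X : Set G) ≠ ⊥ := by
      intro hb
      rw [hb, le_bot_iff] at e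
      exact ne_bot_of_isQuasisimple hK.2 e
    have hz := h.mem_of_inv hne (fun q hq => norm_cent (hn q hq))
    exact h.not_cent hL (fun x hx => hz x (hLX hx))

theorem simple_of [Finite G] (hF : fittingSubgroup G = ⊥) {L : Subgroup G} (hL : IsComponent L) :
    L ⊓ centralizer (L : Set G) = ⊥ ∧ IsSimpleGroup L ∧ ¬ IsMulCommutative L := by
  have h1 : L ⊓ centralizer (L : Set G) = ⊥ :=
    le_bot_iff.1 (hF ▸ component_center_le_fittingSubgroup hL)
  refine ⟨h1, isSimpleGroup_of_isQuasisimple hL.2 ?_, ?_⟩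
  · rw [eq_bot_iff]
    intro x hx
    have : (x : G) ∈ L ⊓ centralizer (L : Set G) :=
      ⟨x.2, fun y hy => congrArg Subtype.val (mem_center_iff.1 hx ⟨y, hy⟩)⟩
    rw [h1, mem_bot] at this
    exact mem_bot.2 (Subtype.ext this)
  · intro hc
    apply not_le_centralizer_of_isQuasisimple hL.2
    intro x hx y hy
    exact congrArg Subtype.val (hc.is_comm.comm ⟨y, hy⟩ ⟨x, hx⟩)

/-- a non-abelian simple group has no Sylow 2-subgroup of order 2 -/
theorem exists_third {L : Type*} [Group L] [Finite L] [IsSimpleGroup L]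
    (hc : ¬ IsMulCommutative L) (R : Sylow 2 L) {t : L} (ht : t ∈ (R : Subgroup L)) (ht1 : t ≠ 1) :
    ∃ x ∈ (R : Subgroup L), x ≠ 1 ∧ x ≠ t := by
  haveI : Fact (Nat.Prime 2) := ⟨Nat.prime_two⟩
  by_contra hx
  push Not at hx
  have hcy : IsCyclic R := by
    refine ⟨⟨⟨t, ht⟩, fun x => ?_⟩⟩
    by_cases h1 : (x : L) = 1
    · exact ⟨0, Subtype.ext (by simp [h1])⟩
    · exact ⟨1, Subtype.ext (by simp [hx x x.2 h1])⟩
  have h2 : 2 ∣ Nat.card L := by
    obtain ⟨k, hk⟩ := IsPGroup.iff_card.1 R.isPGroup'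
    have : k ≠ 0 := by
      rintro rfl
      have := (card_eq_one.1 (by simpa using hk) : (R : Subgroup L) = ⊥)
      rw [this, mem_bot] at ht
      exact ht1 ht
    exact (hk ▸ dvd_pow_self 2 this).trans (card_subgroup_dvd_card _)
  have hm : (Nat.card L).minFac = 2 := (Nat.minFac_eq_two_iff _).2 h2
  have hcomp := IsCyclic.isComplement' hm hcy
  rcases (MonoidHom.normal_ker (MonoidHom.transferSylow R
    (hcy.normalizer_le_centralizer hm))).eq_bot_or_eq_top with e | e
  · rw [e] at hcomp
    have hR : (R : Subgroup L) = ⊤ := isComplement'_bot_left.1 hcomp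
    apply hc
    refine ⟨⟨fun a b => ?_⟩⟩
    have ha := hx a (hR ▸ mem_top a)
    have hb := hx b (hR ▸ mem_top b)
    by_cases h1 : a = 1
    · simp [h1]
    · by_cases h2 : b = 1
      · simp [h2]
      · rw [ha h1, hb h2]
  · rw [e] at hcomp
    have hR : (R : Subgroup L) = ⊥ := isComplement'_top_left.1 hcomp
    rw [hR, mem_bot] at ht
    exact ht1 ht

end Cfsg.Agent.H24.Lx
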