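import Cfsg.Agent.H24.Lx1

/-! Large extraspecial subgroups: the case of two components. -/

set_option autoImplicit false
set_option linter.unusedSectionVars false

namespace Cfsg.Agent.H24.Lx

open Subgroup Cfsg.Agent.H2

variable {G : Type*} [Group G] [Finite G]

theorem coord {J : Subgroup G} (hJ : J ⊓ centralizer (J : Set G) = ⊥) {z a b t x d : G}
    (ha : a ∈ J) (hb : b ∈ centralizer (J : Set G)) (hz : z = a * b) (ht : t = 1 ∨ t = z)
    (hx : x ∈ J) (hd : d ∈ centralizer (J : Set G)) (e : t = x * d) : x = 1 ∨ x = a := by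
  rcases ht with h | h
  · left
    exact uniq hJ hx (one_mem _) hd (one_mem _) (by rw [← e, h, one_mul])
  · right
    exact uniq hJ hx ha hd hb (by rw [← e, h, hz])

theorem case4 {Q : Subgroup G} {z : G} (h : St Q z) (h2 : pCore 2 G = ⊥) {L : Subgroup G}
    (hL : IsComponent L) {u : G} (hu : u ∈ Q) (hne : cj u L ≠ L) :
    L ⊓ cj u L = ⊥ ∧ (∀ x ∈ L, ∀ y ∈ cj u L, x * y = y * x) ∧ L ⊔ cj u L = layer G ∧
      ∃ z₁ ∈ L, z = z₁ * (u * z₁ * u⁻¹) ∧
        (∃ R : Sylow 2 L, (R : Subgroup L) = (centralizer ({z₁} : Set G)).subgroupOf L ∧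
          (frattini (R : Subgroup L)).map ((L.subtype).comp (R : Subgroup L).subtype) ≤
            zpowers z₁) ∧
        Q ≠ (pCore 2 (centralizer ({z} : Set G))).map (centralizer ({z} : Set G)).subtype := by
  haveI : Fact (Nat.Prime 2) := ⟨Nat.prime_two⟩
  obtain ⟨hF, -, hE, -⟩ := h.layer_eq h2
  haveI := layer_normal G
  have hzE : z ∈ layer G := h.mem_of_normal hE
  have hK : IsComponent (cj u L) := cj_comp hL u
  obtain ⟨hL0, hLs, hLc⟩ := simple_of hF hL
  have hK0 := (simple_of hF hK).1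
  have hKL : cj u L ≤ centralizer (L : Set G) := le_cent_of_ne hK hL hne
  have hLK : L ≤ centralizer (cj u L : Set G) := le_cent_of_ne hL hK hne.symm
  have hEL : layer G ≤ L ⊔ centralizer (L : Set G) := by
    apply sSup_le
    intro J hJ
    by_cases e : J = L
    · exact e ▸ le_sup_left
    · exact (le_cent_of_ne hJ hL e).trans le_sup_right
  obtain ⟨z₁, hz₁, c, hc, hzc⟩ := decomp le_rfl (hEL hzE)
  have hz1 : z₁ ≠ 1 := by
    rintro rfl
    exact h.not_cent hL (by rw [hzc, one_mul]; exact hc)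
  have hz2 : z₁ * z₁ = 1 := by
    refine uniq hL0 (mul_mem hz₁ hz₁) (one_mem _) (mul_mem hc hc) (one_mem _) ?_
    calc z₁ * z₁ * (c * c) = z₁ * (z₁ * c) * c := by group
      _ = z₁ * (c * z₁) * c := by rw [hc z₁ hz₁]
      _ = (z₁ * c) * (z₁ * c) := by group
      _ = 1 * 1 := by rw [← hzc, h.zz, one_mul]
  have hzi : z₁⁻¹ = z₁ := inv_eq_of_mul_eq_one_right hz2
  have hzK : z = (u * z₁ * u⁻¹) * (u * c * u⁻¹) := by
    calc z = u * z * u⁻¹ := by rw [h.cz u hu]; group
      _ = _ := by rw [hzc]; group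
  -- elements of `L` commuting with `z₁`
  have hxz : ∀ x ∈ L, x * z₁ = z₁ * x → x * z = z * x := by
    intro x hx e
    rw [hzc, ← mul_assoc, e, mul_assoc, hc x hx, mul_assoc]
  have hw : ∀ x ∈ L, x * z₁ = z₁ * x → x⁻¹ * (u * x * u⁻¹) ∈ Q := by
    intro x hx e
    have := (mem_normalizer_iff''.1 (h.nrm x (hxz x hx e)) u).1 hu
    have h3 := Q.mul_mem this (Q.inv_mem hu)
    simpa only [mul_assoc] using h3
  have hsq : ∀ x ∈ L, x * z₁ = z₁ * x → x * x = 1 ∨ x * x = z₁ := by
    intro x hx e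
    have hy := hKL (mem_cj (g := u) hx)
    have := coord hL0 hz₁ hc hzc (h.sq (hw x hx e)) (mul_mem (inv_mem hx) (inv_mem hx))
      (mul_mem hy hy) (by
        have h3 := hy x⁻¹ (inv_mem hx)
        calc x⁻¹ * (u * x * u⁻¹) * (x⁻¹ * (u * x * u⁻¹))
            = x⁻¹ * ((u * x * u⁻¹) * x⁻¹) * (u * x * u⁻¹) := by group
          _ = _ := by rw [← h3]; group)
    rcases this with e1 | e1
    · left
      rw [← inv_inj, mul_inv_rev, e1, inv_one]
    · right
      rw [← inv_inj, mul_inv_rev, e1, hzi]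
  have h4 : ∀ x ∈ L, x * z₁ = z₁ * x → x ^ 4 = 1 := by
    intro x hx e
    have : x ^ 4 = (x * x) * (x * x) := by simp only [pow_succ, pow_zero, one_mul, mul_assoc]
    rcases hsq x hx e with e1 | e1
    · rw [this, e1, one_mul]
    · rw [this, e1, hz2]
  -- the Sylow subgroup
  obtain ⟨S, hS⟩ := h.pg.exists_le_sylow
  have hzS : ∀ s ∈ (S : Subgroup G), s * z = z * s := by
    haveI : Nontrivial (S : Subgroup G) := ⟨⟨⟨z, hS h.zQ⟩, 1, fun e => h.z1 (congrArg Subtype.val e)⟩⟩
    haveI := S.isPGroup'.center_nontrivial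
    obtain ⟨t, ht⟩ := exists_ne (1 : center (S : Subgroup G))
    have h3 : ∀ s ∈ (S : Subgroup G), s * (t : (S : Subgroup G)) = (t : (S : Subgroup G)) * s :=
      fun s hs => congrArg Subtype.val (mem_center_iff.1 t.2 ⟨s, hs⟩)
    rcases h.cen _ (fun q hq => h3 q (hS hq)) with e | e
    · exact absurd (Subtype.ext (Subtype.ext e)) ht
    · rw [← e]; exact h3
  obtain ⟨R, hR⟩ := exists_sylow_eq_subgroupOf_of_isSubnormal hL.1 S
  have hmc : ∀ x : L, x ∈ (centralizer ({z₁} : Set G)).subgroupOf L ↔ (x : G) * z₁ = z₁ * x := by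
    intro x
    rw [mem_subgroupOf, mem_centralizer_singleton_iff]
  have hRC : (R : Subgroup L) = (centralizer ({z₁} : Set G)).subgroupOf L := by
    symm
    apply R.is_maximal'
    · intro x
      refine ⟨2, Subtype.ext (Subtype.ext ?_)⟩
      exact h4 _ x.1.2 ((hmc _).1 x.2)
    · intro x hx
      rw [hR, mem_subgroupOf] at hx
      rw [hmc]
      have h3 := hzS _ hx
      rw [hzc, mul_assoc z₁, ← hc _ x.2, ← mul_assoc, ← mul_assoc] at h3
      exact mul_right_cancel h3
  obtain ⟨x', hx', hx1', hx2'⟩ := exists_third hLc R (t := ⟨z₁, hz₁⟩)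
    (by rw [hRC, hmc]) (fun e => hz1 (congrArg Subtype.val e))
  rw [hRC, hmc] at hx'
  obtain ⟨x, hx⟩ := x'
  have hx1 : x ≠ 1 := fun e => hx1' (Subtype.ext e)
  have hx2 : x ≠ z₁ := fun e => hx2' (Subtype.ext e)
  have hx3 : x * z₁ = z₁ * x := hx'
  have hy := mem_cj (g := u) hx
  have horb : ∀ v ∈ Q, cj v L = L ∨ cj v L = cj u L := by
    intro v hv
    by_contra hcon
    push Not at hcon
    obtain ⟨hv1, hv2⟩ := hcon
    have ht := h.comm _ (Q.inv_mem (hw x hx hx3)) v hv
    have m1 := mem_cj (g := v) (L.inv_mem hx)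
    have m2 := mem_cj (g := v * u) hx
    by_cases e : cj (v * u) L = L
    · rw [e] at m2
      have := coord hK0 (mem_cj hz₁) (cent_cj hc u) hzK ht (inv_mem hy)
        (mul_mem (mul_mem (hLK hx) (le_cent_of_ne (cj_comp hL v) hK hv2 m1)) (hLK m2))
        (by group)
      rcases this with e1 | e1
      · apply hx1
        calc x = u⁻¹ * ((u * x * u⁻¹)⁻¹)⁻¹ * u := by group
          _ = 1 := by rw [e1]; group
      · apply hx2
        calc x = u⁻¹ * ((u * x * u⁻¹)⁻¹)⁻¹ * u := by group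
          _ = z₁⁻¹ := by rw [e1]; group
          _ = z₁ := hzi
    · have h3 := hKL (inv_mem hy) x hx
      have := coord hL0 hz₁ hc hzc ht hx
        (mul_mem (mul_mem (hKL (inv_mem hy)) (le_cent_of_ne (cj_comp hL v) hL hv1 m1))
          (le_cent_of_ne (cj_comp hL (v * u)) hL e m2))
        (by
          calc _ = ((u * x * u⁻¹)⁻¹ * x) * (v * x⁻¹ * v⁻¹) * (v * u * x * (v * u)⁻¹) := by group
            _ = _ := by rw [← h3]; group)
      rcases this with e1 | e1
      · exact hx1 e1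
      · exact hx2 e1
  have hXE : L ⊔ cj u L = layer G := by
    refine le_antisymm (sup_le (le_layer hL) (le_layer hK)) (h.layer_le hL le_sup_left ?_ ?_)
    · intro J hJ
      by_cases e1 : J = L
      · left; exact e1 ▸ le_sup_left
      · by_cases e2 : J = cj u L
        · left; exact e2 ▸ le_sup_right
        · right
          rw [le_centralizer_iff]
          exact sup_le (le_cent_of_ne hL hJ (Ne.symm e1)) (le_cent_of_ne hK hJ (Ne.symm e2))
    · intro q hq
      have hd : cj q L ≠ cj (q * u) L := by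
        rw [← cj_cj]
        intro e
        exact hne (map_injective (MulAut.conj q).injective e).symm
      show (L ⊔ cj u L).map _ = _
      rw [Subgroup.map_sup]
      show cj q L ⊔ cj q (cj u L) = _
      rw [cj_cj]
      rcases horb q hq with e1 | e1 <;> rcases horb (q * u) (mul_mem hq hu) with e2 | e2
      · exact absurd (e1.trans e2.symm) hd
      · rw [e1, e2]
      · rw [e1, e2, sup_comm]
      · exact absurd (e1.trans e2.symm) hd
  have hzz : z = z₁ * (u * z₁ * u⁻¹) := by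
    obtain ⟨a, ha, b, hb, e⟩ := decomp hKL (hXE ▸ hzE : z ∈ L ⊔ cj u L)
    have e1 : a = z₁ := uniq hL0 ha hz₁ (hKL hb) hc (by rw [← e, hzc])
    have e2 : b = u * z₁ * u⁻¹ := uniq hK0 hb (mem_cj hz₁) (hLK ha) (cent_cj hc u)
      (by rw [← hzK, e, hKL hb a ha])
    rw [e, e1, e2]
  refine ⟨?_, fun a ha b hb => hKL hb a ha, hXE, z₁, hz₁, hzz, ⟨R, hRC, ?_⟩, ?_⟩
  · exact le_bot_iff.1 (hL0 ▸ inf_le_inf_left L hKL)
  · rw [map_le_iff_le_comap]
    have hp : ∀ r : (R : Subgroup L),
        r ^ 2 ∈ (zpowers z₁).comap ((L.subtype).comp (R : Subgroup L).subtype) := by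
      intro r
      have hr : (r : L) ∈ (centralizer ({z₁} : Set G)).subgroupOf L := hRC ▸ r.2
      rw [hmc] at hr
      show ((r : L) : G) ^ 2 ∈ zpowers z₁
      rw [pow_two]
      rcases hsq _ (r : L).2 hr with e | e
      · rw [e]; exact one_mem _
      · rw [e]; exact mem_zpowers _
    exact H3.frattini_le_of (p := 2) _ (H3.commutator_le_of_sq_mem hp) hp
  · intro hQ
    have hT : layer G ⊓ centralizer ({z} : Set G) ≤ Q := by
      rw [hQ]
      refine le_pCore_map_subtype inf_le_right ?_ ?_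
      · intro g hg
        rw [mem_normalizer_iff]
        intro k
        have i1 : k ∈ layer G ↔ g * k * g⁻¹ ∈ layer G :=
          ⟨fun hk => Normal.conj_mem inferInstance k hk g, fun hk => by
            have := Normal.conj_mem inferInstance _ hk g⁻¹
            simpa [mul_assoc] using this⟩
        have i2 := mem_normalizer_iff.1 (le_normalizer hg) k
        simp only [mem_inf]
        exact and_congr i1 i2
      · rintro ⟨g, hg1, hg2⟩
        refine ⟨2, Subtype.ext ?_⟩
        show g ^ 2 ^ 2 = 1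
        have hg3 : g * z = z * g := mem_centralizer_singleton_iff.1 hg2
        obtain ⟨a, ha, b, hb, e⟩ := decomp hKL (hXE ▸ hg1 : g ∈ L ⊔ cj u L)
        have hz₂ := mem_cj (g := u) hz₁
        have c1 := hKL hb z₁ hz₁
        have c2 := hKL (mul_mem (mul_mem hb hz₂) (inv_mem hb)) a⁻¹ (inv_mem ha)
        have key : (a * z₁ * a⁻¹) * (b * (u * z₁ * u⁻¹) * b⁻¹) = z₁ * (u * z₁ * u⁻¹) := by
          calc _ = a * z₁ * (a⁻¹ * (b * (u * z₁ * u⁻¹) * b⁻¹)) := by group
            _ = a * (z₁ * b) * (u * z₁ * u⁻¹) * b⁻¹ * a⁻¹ := by rw [c2]; group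
            _ = g * z * g⁻¹ := by rw [c1, e, hzz]; group
            _ = _ := by rw [hg3, ← hzz]; group
        have k1 : a * z₁ * a⁻¹ = z₁ := uniq hL0 (mul_mem (mul_mem ha hz₁) (inv_mem ha)) hz₁
          (hKL (mul_mem (mul_mem hb hz₂) (inv_mem hb))) (hKL hz₂) key
        rw [k1] at key
        have k2 := mul_left_cancel key
        have a4 : a ^ 4 = 1 := h4 a ha (by
          calc a * z₁ = (a * z₁ * a⁻¹) * a := by group
            _ = _ := by rw [k1])
        have b4 : (u⁻¹ * b * u) ^ 4 = 1 := h4 _ (mem_cj_iff.1 hb) (by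
          calc u⁻¹ * b * u * z₁ = u⁻¹ * (b * (u * z₁ * u⁻¹) * b⁻¹) * b * u := by group
            _ = _ := by rw [k2]; group)
        have b4' : b ^ 4 = 1 := by
          calc b ^ 4 = u * (u⁻¹ * b * u) ^ 4 * u⁻¹ := by
                simp only [pow_succ, pow_zero]; group
            _ = 1 := by rw [b4]; group
        have cab : Commute a b := hKL hb a ha
        rw [e, show 2 ^ 2 = 4 from rfl, cab.mul_pow, a4, b4', one_mul]
    have hxQ : x ∈ Q := hT (mem_inf.2 ⟨le_layer hL hx, mem_centralizer_singleton_iff.2 (hxz x hx hx3)⟩)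
    have := coord hL0 hz₁ hc hzc (h.comm _ (Q.inv_mem hxQ) u hu) (inv_mem hx) (hKL hy) (by group)
    rcases this with e1 | e1
    · exact hx1 (inv_eq_one.1 e1)
    · exact hx2 (by rw [← hzi, ← e1, inv_inv])

theorem case3 {Q : Subgroup G} {z : G} (h : St Q z) {L : Subgroup G}
    (hL : IsComponent L) (hn : ∀ u ∈ Q, cj u L = L) : layer G = L := by
  refine le_antisymm (h.layer_le hL le_rfl ?_ hn) (le_layer hL)
  intro J hJ
  by_cases e : J = L
  · left; exact e.le
  · right; exact le_cent_of_ne hJ hL e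

end Cfsg.Agent.H24.Lx
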